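import Cfsg.Agent.Lib.Helper21.OAsch.Defs2
import Cfsg.Agent.Lib.Helper94.OrthFrame
import Cfsg.Agent.Lib.Helper44.StdForms

set_option autoImplicit false

namespace Cfsg.Agent.Lib.Helper64.OAsch

open Cfsg Cfsg.Geo Matrix Cfsg.Agent.Lib.Helper13.Asch Cfsg.Agent.Lib.Helper21.Asch
  Cfsg.Agent.Lib.Helper21.OAsch
open QuadraticMap Module
open Cfsg.Agent.Lib.Helper94.OF
open scoped Kronecker MatrixGroups

variable {ι : Type} [Fintype ι] [DecidableEq ι] {F : Type*} [Field F]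

/-- generic form of R11, with the conclusion of O2p for `H` as a hypothesis. -/
theorem frame_of_blocks_three_gen [Fintype F] (hq : Fintype.card F = 3)
    (Q : QuadraticForm F (ι → F))
    (H : Subgroup (GL ι F)) (hH : H ≤ isometryGroup F ⇑Q)
    (h : CDec ⇑Q H 3)
    (hO2p : ∀ (𝒟 : Set (Submodule F (ι → F))), (∀ W ∈ 𝒟, W ≠ ⊥) → sSupIndep 𝒟 →
      (∃ W ∈ 𝒟, ∃ W' ∈ 𝒟, W ≠ W') →
      (∀ h ∈ H, ∀ W ∈ 𝒟, W.map (Matrix.toLin' (h : Matrix ι ι F)) ∈ 𝒟) →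
      (∀ W ∈ 𝒟, ∀ W' ∈ 𝒟, W ≠ W' → AreOrthogonalFor (QuadraticMap.polar ⇑Q) W W') →
      ∀ W ∈ 𝒟, CDec ⇑Q H (Module.finrank F W)) :
    CDec ⇑Q H 1 := by
  classical
  obtain ⟨t, D, hD, hle⟩ := h
  have h30 : (3 : F) = 0 := by
    have := Nat.cast_card_eq_zero F
    rw [hq] at this
    exact_mod_cast this
  have h2 : (2 : F) ≠ 0 := by
    intro h
    exact one_ne_zero (show (1 : F) = 0 by linear_combination h30 - h)
  have h3 : ∀ x : F, x = 0 ∨ x = 1 ∨ x = -1 := by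
    intro x
    by_contra hcon
    push Not at hcon
    have h1n : (1 : F) ≠ -1 := by
      intro h
      exact h2 (by linear_combination h)
    have h0n : (0 : F) ≠ -1 := by
      intro h
      exact one_ne_zero (show (1 : F) = 0 by linear_combination h)
    have h4 : ({0, 1, -1, x} : Finset F).card = 4 := by
      rw [Finset.card_insert_of_notMem (by simp [zero_ne_one, h0n, Ne.symm hcon.1]),
        Finset.card_insert_of_notMem (by simp [h1n, Ne.symm hcon.2.1]),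
        Finset.card_insert_of_notMem (by simp [Ne.symm hcon.2.2]), Finset.card_singleton]
    have := Finset.card_le_univ ({0, 1, -1, x} : Finset F)
    rw [h4, hq] at this
    omega
  have ht : 2 ≤ t := hD.decomp.decomp.two_le
  have horth : ∀ i j, i ≠ j → ∀ u ∈ D i, ∀ v ∈ D j, polar Q u v = 0 :=
    fun i j hij u hu v hv => hD.decomp.orthogonal i j hij u hu v hv
  have hnd : ∀ i, ∀ w ∈ D i, (∀ z ∈ D i, polar Q z w = 0) → w = 0 := by
    intro i w hw hz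
    by_contra h0
    obtain ⟨x, hx, hne⟩ := (hD.decomp.nondegenerate i w hw h0).1
    exact hne (hz x hx)
  have hfr := hD.decomp.decomp.finrank_eq
  obtain ⟨a₀, ha₀, hQa₀, hA₀⟩ : ∃ a ∈ D ⟨0, by omega⟩, Q a ≠ 0 ∧ Aniso Q (D ⟨0, by omega⟩) a :=
    exists_aniso_three h3 h30 (hnd _) (hfr _)
  choose e he using fun i => hD.isometric ⟨0, by omega⟩ i
  have hpol : ∀ i (x y : D ⟨0, by omega⟩),
      polar Q ((e i x : D i) : ι → F) ((e i y : D i) : ι → F) = polar Q (x : ι → F) (y : ι → F) := by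
    intro i x y
    have h1 := he i (x + y)
    rw [map_add] at h1
    unfold polar
    rw [← he i x, ← he i y]
    have : ((e i x + e i y : D i) : ι → F) = ((e i x : D i) : ι → F) + ((e i y : D i) : ι → F) := rfl
    rw [← this, h1]
    rfl
  set a : Fin t → (ι → F) := fun i => ((e i ⟨a₀, ha₀⟩ : D i) : ι → F) with ha
  have haD : ∀ i, a i ∈ D i := fun i => (e i ⟨a₀, ha₀⟩).2
  have hQa : ∀ i, Q (a i) = Q a₀ := fun i => he i ⟨a₀, ha₀⟩
  have hAa : ∀ i, Aniso Q (D i) (a i) := by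
    intro i z hz hp hQz
    obtain ⟨z₀, hz₀⟩ := (e i).surjective ⟨z, hz⟩
    have hz' : ((e i z₀ : D i) : ι → F) = z := by rw [hz₀]
    have h1 : polar Q a₀ (z₀ : ι → F) = 0 := by
      have := hpol i ⟨a₀, ha₀⟩ z₀
      rw [hz'] at this
      rw [← this]; exact hp
    have h4 : Q (z₀ : ι → F) = 0 := by
      rw [← he i z₀, hz']; exact hQz
    have h5 := hA₀ _ z₀.2 h1 h4
    have h6 : z₀ = 0 := Subtype.ext h5
    rw [← hz', h6, map_zero]; rfl
  have FP : ∀ i, ∀ v ∈ D i, ∀ w ∈ D i, Q v = Q a₀ → Q w = Q a₀ → w = v ∨ w = -v ∨ polar Q v w = 0 := by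
    intro i v hv w hw hQv hQw
    have hAv : Aniso Q (D i) v :=
      (hAa i).of_norm_eq h2 (haD i) hv (by rw [hQv, hQa]) (by rw [hQa]; exact hQa₀)
    exact fp_of_aniso h3 h30 hv hw (by rw [hQv]; exact hQa₀) (by rw [hQw, hQv]) hAv
  -- the frame
  set 𝒟 : Set (Submodule F (ι → F)) :=
    {W | ∃ v, (∃ i, v ∈ D i ∧ Q v = Q a₀) ∧ W = Submodule.span F {v}} with h𝒟
  have hv0 : ∀ v : ι → F, Q v = Q a₀ → v ≠ 0 := by
    rintro v hv rfl
    rw [map_zero] at hv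
    exact hQa₀ hv.symm
  have hvv : ∀ v : ι → F, Q v = Q a₀ → polar Q v v ≠ 0 := by
    intro v hv
    rw [polar_self, nsmul_eq_mul, hv]
    push_cast
    exact mul_ne_zero h2 hQa₀
  have horth' : ∀ W ∈ 𝒟, ∀ W' ∈ 𝒟, W ≠ W' → AreOrthogonalFor (QuadraticMap.polar ⇑Q) W W' := by
    rintro _ ⟨v, ⟨i, hvi, hQv⟩, rfl⟩ _ ⟨w, ⟨j, hwj, hQw⟩, rfl⟩ hne
    have hvw : polar Q v w = 0 := by
      by_cases hij : i = j
      · subst hij
        rcases FP i v hvi w hwj hQv hQw with h | h | h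
        · exact absurd (by rw [h]) hne
        · exfalso
          apply hne
          rw [h, ← Set.neg_singleton, Submodule.span_neg]
        · exact h
      · exact horth i j hij v hvi w hwj
    intro x hx y hy
    obtain ⟨c, rfl⟩ := Submodule.mem_span_singleton.1 hx
    obtain ⟨d, rfl⟩ := Submodule.mem_span_singleton.1 hy
    rw [polar_smul_left, polar_smul_right, hvw]
    simp
  have hmem : ∀ i, Submodule.span F {a i} ∈ 𝒟 := fun i => ⟨a i, ⟨i, haD i, hQa i⟩, rfl⟩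
  have h1 := hO2p 𝒟 ?_ ?_ ?_ ?_ horth' _ (hmem ⟨0, by omega⟩)
  · rwa [finrank_span_singleton (hv0 _ (hQa _))] at h1
  · rintro _ ⟨v, ⟨i, hvi, hQv⟩, rfl⟩
    rw [Ne, Submodule.span_singleton_eq_bot]
    exact hv0 v hQv
  · rintro _ ⟨v, ⟨i, hvi, hQv⟩, rfl⟩
    rw [Submodule.disjoint_def]
    intro x hx hx2
    obtain ⟨c, rfl⟩ := Submodule.mem_span_singleton.1 hx
    have hker : sSup (𝒟 \ {Submodule.span F {v}}) ≤ LinearMap.ker (polarBilin Q v) := by
      apply sSup_le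
      rintro W' ⟨hW', hne⟩ y hy
      rw [LinearMap.mem_ker, polarBilin_apply_apply]
      exact horth' _ ⟨v, ⟨i, hvi, hQv⟩, rfl⟩ W' hW' (fun h => hne h.symm) v
        (Submodule.mem_span_singleton_self v) y hy
    have h5 := hker hx2
    rw [LinearMap.mem_ker, polarBilin_apply_apply, polar_smul_right, smul_eq_mul] at h5
    rcases mul_eq_zero.1 h5 with h | h
    · rw [h, zero_smul]
    · exact absurd h (hvv v hQv)
  · refine ⟨_, hmem ⟨0, by omega⟩, _, hmem ⟨1, by omega⟩, ?_⟩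
    intro heq
    have h5 : a ⟨0, by omega⟩ ∈ Submodule.span F {a ⟨1, by omega⟩} := by
      rw [← heq]; exact Submodule.mem_span_singleton_self _
    have h6 : a ⟨0, by omega⟩ ∈ D ⟨1, by omega⟩ :=
      (Submodule.span_singleton_le_iff_mem _ _).2 (haD _) h5
    exact hvv _ (hQa _) (horth ⟨0, by omega⟩ ⟨1, by omega⟩ (by simp [Fin.ext_iff]) _ (haD _) _ h6)
  · rintro g hg _ ⟨v, ⟨i, hvi, hQv⟩, rfl⟩
    obtain ⟨σ, hσ⟩ := hle hg
    refine ⟨(g : Matrix ι ι F) *ᵥ v, ⟨σ i, ?_, ?_⟩, ?_⟩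
    · rw [← hσ i]
      exact ⟨v, hvi, by simp⟩
    · rw [← hQv]
      exact hH hg v v
    · rw [Submodule.map_span, Set.image_singleton, Matrix.toLin'_apply]

/-- R11 with the conclusion of O2p for `H` as a hypothesis. -/
theorem frame_of_blocks_three_aux [Fintype F] (hq : Fintype.card F = 3) (m : ℕ)
    (H : Subgroup (GL (Unit ⊕ (Fin m ⊕ Fin m)) F)) (hH : H ≤ isometryGroup F (quadFormOdd m F))
    (h : CDec (quadFormOdd m F) H 3)
    (hO2p : ∀ (𝒟 : Set (Submodule F (Unit ⊕ (Fin m ⊕ Fin m) → F))), (∀ W ∈ 𝒟, W ≠ ⊥) →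
      sSupIndep 𝒟 → (∃ W ∈ 𝒟, ∃ W' ∈ 𝒟, W ≠ W') →
      (∀ h ∈ H, ∀ W ∈ 𝒟, W.map (Matrix.toLin'
        (h : Matrix (Unit ⊕ (Fin m ⊕ Fin m)) (Unit ⊕ (Fin m ⊕ Fin m)) F)) ∈ 𝒟) →
      (∀ W ∈ 𝒟, ∀ W' ∈ 𝒟, W ≠ W' →
        AreOrthogonalFor (QuadraticMap.polar (quadFormOdd m F)) W W') →
      ∀ W ∈ 𝒟, CDec (quadFormOdd m F) H (Module.finrank F W)) :
    CDec (quadFormOdd m F) H 1 := by
  rw [← Cfsg.Agent.Lib.Helper44.oddQF_coe] at hH h hO2p ⊢
  exact frame_of_blocks_three_gen hq _ H hH h hO2p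

end Cfsg.Agent.Lib.Helper64.OAsch
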