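import Cfsg.Agent.Lib.Helper64.OAsch.R56Aux
import Cfsg.Agent.Lib.Helper64.OAsch.R11Aux
import Cfsg.Agent.Lib.Helper86.OAsch.O2p
import Cfsg.Agent.Lib.Helper86.OAsch.RE
import Cfsg.Agent.Lib.Helper8.OAsch.B0a
import Cfsg.Agent.Lib.Helper8.OAsch.B0b

set_option autoImplicit false

namespace Cfsg.Agent.Lib.Helper64.OAsch

open Cfsg Cfsg.Geo Matrix Cfsg.Agent.Lib.Helper13.Asch Cfsg.Agent.Lib.Helper21.Asch
  Cfsg.Agent.Lib.Helper21.OAsch
open scoped Kronecker MatrixGroups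

variable {F : Type*} [Field F]

/-- R5 -/
theorem not_le_fieldNormalizer [Fintype F] (hodd : Odd (Fintype.card F)) (m : ℕ) (hm : 3 ≤ m)
    {r : ℕ} (hr : 3 ≤ r)
    (K : Subalgebra F (Matrix (Unit ⊕ (Fin m ⊕ Fin m)) (Unit ⊕ (Fin m ⊕ Fin m)) F))
    (hK : IsFieldSubalgebra r K) : ¬ omegaGL (quadFormOdd m F) ≤ subalgebraNormalizer K :=
  not_le_fieldNormalizer_aux m hm hr K hK (Cfsg.Agent.Lib.Helper86.OAsch.exists_eichler hodd m hm)

/-- R6 -/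
theorem not_le_wreath_two [Fintype F] (hodd : Odd (Fintype.card F)) (m : ℕ) (hm : 3 ≤ m) {k : ℕ}
    (hk : 3 ≤ k) (e : (Unit ⊕ (Fin m ⊕ Fin m)) ≃ (Fin 2 → Fin k))
    (P : GL (Unit ⊕ (Fin m ⊕ Fin m)) F) :
    ¬ omegaGL (quadFormOdd m F) ≤ tensorWreathSubgroup k 2 e P :=
  not_le_wreath_two_aux m hk e P (Cfsg.Agent.Lib.Helper86.OAsch.exists_eichler hodd m hm)

/-- R11 -/
theorem frame_of_blocks_three [Fintype F] (hq : Fintype.card F = 3) (m : ℕ)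
    (H : Subgroup (GL (Unit ⊕ (Fin m ⊕ Fin m)) F)) (hH : H ≤ isometryGroup F (quadFormOdd m F))
    (hirr : ActsIrreducibly (matrixSet H)) (h : CDec (quadFormOdd m F) H 3) :
    CDec (quadFormOdd m F) H 1 := by
  have hO := Cfsg.Agent.Lib.Helper8.OAsch.odata_odd (F := F) (by rw [hq]; decide) m
  exact frame_of_blocks_three_aux hq m H hH h
    (Cfsg.Agent.Lib.Helper86.OAsch.orth_of_set' hO H
      (Cfsg.Agent.Lib.Helper8.OAsch.iso_of_le hO hH) hirr)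

end Cfsg.Agent.Lib.Helper64.OAsch
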