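import Cfsg.Agent.Lib.Helper35.OAsch.R5a
import Cfsg.Agent.Lib.Helper35.OAsch.R6b
import Cfsg.Agent.Lib.Helper35.OAsch.R6c

set_option autoImplicit false

namespace Cfsg.Agent.Lib.Helper64.OAsch

open Cfsg Cfsg.Geo Matrix Cfsg.Agent.Lib.Helper13.Asch Cfsg.Agent.Lib.Helper21.Asch
  Cfsg.Agent.Lib.Helper21.OAsch
open scoped Kronecker MatrixGroups

variable {F : Type*} [Field F]

/-- generic core of R6 : an element of a conjugate of the standard wreath group `GL_k ≀ S_2`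
fixing a subspace of codimension at most `2` pointwise has trivial square. -/
theorem sq_eq_one_of_mem_wreath_two {ι : Type} [Fintype ι] [DecidableEq ι] {k : ℕ}
    (hk : 3 ≤ k) (e : ι ≃ (Fin 2 → Fin k)) (P : GL ι F) (g : GL ι F)
    (hmem : g ∈ tensorWreathSubgroup k 2 e P) (W : Submodule F (ι → F))
    (hW : Fintype.card ι ≤ Module.finrank F W + 2)
    (hgW : ∀ x ∈ W, (g : Matrix ι ι F) *ᵥ x = x) : g * g = 1 := by
  obtain ⟨y, ⟨x, hx, rfl⟩, rfl⟩ := hmem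
  obtain ⟨gs, hgs⟩ := Cfsg.Agent.Lib.Helper35.OAsch.sq_pure_of_two x hx
  have hcard : k * k = Fintype.card ι := by
    have := Fintype.card_congr e
    simp at this
    rw [this]; ring
  -- the transported subspace
  let f : (ι → F) →ₗ[F] ((Fin 2 → Fin k) → F) :=
    (LinearEquiv.funCongrLeft F F e.symm).toLinearMap ∘ₗ
      Matrix.toLin' ((P⁻¹ : GL ι F) : Matrix ι ι F)
  have hfa : ∀ a, f a = (((P⁻¹ : GL ι F) : Matrix ι ι F) *ᵥ a) ∘ e.symm := by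
    intro a
    rfl
  have hf : Function.Injective f := by
    intro a b hab
    rw [hfa, hfa] at hab
    have h1 : ((P⁻¹ : GL ι F) : Matrix ι ι F) *ᵥ a = ((P⁻¹ : GL ι F) : Matrix ι ι F) *ᵥ b := by
      funext i
      have := congrFun hab (e i)
      simpa using this
    have h2 := congrArg (fun v => (P : Matrix ι ι F) *ᵥ v) h1
    simpa [Matrix.mulVec_mulVec, ← Units.val_mul] using h2
  have hfin : Module.finrank F (W.map f) = Module.finrank F W :=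
    (LinearEquiv.finrank_eq (Submodule.equivMapOfInjective f hf W)).symm
  have hy : ((glReindex e.symm x : GL ι F) : Matrix ι ι F) =
      (x : Matrix (Fin 2 → Fin k) (Fin 2 → Fin k) F).submatrix e e := by
    rfl
  have hfix1 : ∀ w ∈ W, (x : Matrix (Fin 2 → Fin k) (Fin 2 → Fin k) F) *ᵥ f w = f w := by
    intro w hw
    have h1 := hgW w hw
    have h2 : ((glReindex e.symm x : GL ι F) : Matrix ι ι F) *ᵥ
        (((P⁻¹ : GL ι F) : Matrix ι ι F) *ᵥ w) = ((P⁻¹ : GL ι F) : Matrix ι ι F) *ᵥ w := by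
      have h3 := congrArg (fun v => ((P⁻¹ : GL ι F) : Matrix ι ι F) *ᵥ v) h1
      simp only [MulEquiv.coe_toMonoidHom, MulAut.conj_apply, Units.val_mul] at h3
      rw [Matrix.mulVec_mulVec, ← mul_assoc, ← mul_assoc, ← Units.val_mul, inv_mul_cancel,
        Units.val_one, one_mul, ← Matrix.mulVec_mulVec] at h3
      exact h3
    rw [hy, Matrix.submatrix_mulVec_equiv] at h2
    rw [hfa]
    funext j
    have := congrFun h2 (e.symm j)
    simpa using this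
  have hfix : ∀ v ∈ W.map f, pureT (fun i => (gs i : Matrix (Fin k) (Fin k) F)) *ᵥ v = v := by
    rintro _ ⟨w, hw, rfl⟩
    rw [← hgs, Units.val_mul, ← Matrix.mulVec_mulVec, hfix1 w hw, hfix1 w hw]
  have h1 := Cfsg.Agent.Lib.Helper35.OAsch.scalar_of_pure_fix hk gs (W.map f)
    (by rw [hfin, hcard]; exact hW) hfix
  have hxx : x * x = 1 := by
    apply Units.ext
    rw [hgs, h1]; rfl
  rw [← map_mul, ← map_mul, hxx, map_one, map_one]

/-- R6 with RE as a hypothesis. -/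
theorem not_le_wreath_two_aux (m : ℕ) {k : ℕ}
    (hk : 3 ≤ k) (e : (Unit ⊕ (Fin m ⊕ Fin m)) ≃ (Fin 2 → Fin k))
    (P : GL (Unit ⊕ (Fin m ⊕ Fin m)) F)
    (hRE : ∃ g ∈ omegaGL (quadFormOdd m F), g * g ∉ scalars (Unit ⊕ (Fin m ⊕ Fin m)) F ∧
      ∃ W U : Submodule F (Unit ⊕ (Fin m ⊕ Fin m) → F),
        2 * m + 1 ≤ Module.finrank F W + 2 ∧ Module.finrank F U ≤ 2 ∧
        (∀ x ∈ W, (g : Matrix (Unit ⊕ (Fin m ⊕ Fin m)) (Unit ⊕ (Fin m ⊕ Fin m)) F) *ᵥ x = x) ∧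
        ∀ x, (g : Matrix (Unit ⊕ (Fin m ⊕ Fin m)) (Unit ⊕ (Fin m ⊕ Fin m)) F) *ᵥ x - x ∈ U) :
    ¬ omegaGL (quadFormOdd m F) ≤ tensorWreathSubgroup k 2 e P := by
  intro hle
  obtain ⟨g, hg, hsc, W, U, hW, hU, hgW, hgU⟩ := hRE
  have hcard : Fintype.card (Unit ⊕ (Fin m ⊕ Fin m)) = 2 * m + 1 := by
    simp; ring
  have := sq_eq_one_of_mem_wreath_two hk e P g (hle hg) W (by rw [hcard]; exact hW) hgW
  apply hsc
  rw [this]
  exact (scalars (Unit ⊕ (Fin m ⊕ Fin m)) F).one_mem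

/-- R5 with RE as a hypothesis. -/
theorem not_le_fieldNormalizer_aux (m : ℕ) (hm : 3 ≤ m)
    {r : ℕ} (hr : 3 ≤ r)
    (K : Subalgebra F (Matrix (Unit ⊕ (Fin m ⊕ Fin m)) (Unit ⊕ (Fin m ⊕ Fin m)) F))
    (hK : IsFieldSubalgebra r K)
    (hRE : ∃ g ∈ omegaGL (quadFormOdd m F), g * g ∉ scalars (Unit ⊕ (Fin m ⊕ Fin m)) F ∧
      ∃ W U : Submodule F (Unit ⊕ (Fin m ⊕ Fin m) → F),
        2 * m + 1 ≤ Module.finrank F W + 2 ∧ Module.finrank F U ≤ 2 ∧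
        (∀ x ∈ W, (g : Matrix (Unit ⊕ (Fin m ⊕ Fin m)) (Unit ⊕ (Fin m ⊕ Fin m)) F) *ᵥ x = x) ∧
        ∀ x, (g : Matrix (Unit ⊕ (Fin m ⊕ Fin m)) (Unit ⊕ (Fin m ⊕ Fin m)) F) *ᵥ x - x ∈ U) :
    ¬ omegaGL (quadFormOdd m F) ≤ subalgebraNormalizer K := by
  intro hle
  obtain ⟨g, hg, hsc, W, U, hW, hU, hgW, hgU⟩ := hRE
  have hg1 : g ≠ 1 := by
    rintro rfl
    apply hsc
    simpa using (scalars (Unit ⊕ (Fin m ⊕ Fin m)) F).one_mem
  have hcard : Fintype.card (Unit ⊕ (Fin m ⊕ Fin m)) = 2 * m + 1 := by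
    simp; ring
  exact Cfsg.Agent.Lib.Helper35.OAsch.not_mem_fieldNormalizer hr K hK g hg1 W U
    (by rw [hcard]; omega) hU hgW hgU (hle hg)

end Cfsg.Agent.Lib.Helper64.OAsch
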